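import Cfsg.Agent.L0.CosetChain

/-! Generated coset table certificate. -/

set_option autoImplicit false
set_option maxRecDepth 100000

open Cfsg.Agent.L0

namespace Cfsg.Agent.H3.SL29.Tc1

noncomputable def t0 : BT := .node (.leaf (nat_lit 0x134518006e5139590009b34a00224a4cd440044933001a76e22e200266d480088a6eb50000094c8008a111558000888100034b1325c00001d11000066911a00000a0200001804000)) (.leaf (nat_lit 0x290db8008a26b353))

noncomputable def tree : BT := t0

noncomputable def row : ℕ → ℕ := rowOf tree (nat_lit 3) (nat_lit 7) (nat_lit 73) (nat_lit 0x1ffffffffffffffffff)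

noncomputable def cols : List Col := [⟨nat_lit 13, nat_lit 0, [([nat_lit 43], nat_lit 0), ([nat_lit 13, nat_lit 13], nat_lit 0), ([nat_lit 53, nat_lit 43, nat_lit 23], nat_lit 0)]⟩,
  ⟨nat_lit 23, nat_lit 0, [([nat_lit 53], nat_lit 0), ([nat_lit 23, nat_lit 23], nat_lit 0), ([nat_lit 13, nat_lit 53, nat_lit 43], nat_lit 0)]⟩,
  ⟨nat_lit 43, nat_lit 0, [([nat_lit 13], nat_lit 0), ([nat_lit 23, nat_lit 13, nat_lit 53], nat_lit 0)]⟩,
  ⟨nat_lit 53, nat_lit 0, [([nat_lit 23], nat_lit 0)]⟩]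

noncomputable def erots : List (List ℕ × ℕ) := []

noncomputable def gens : List ℕ := [nat_lit 13, nat_lit 23, nat_lit 43, nat_lit 53]

noncomputable def chk : ℕ → Bool := chkRow0 row (nat_lit 9) (nat_lit 0xf) (nat_lit 0x70) (nat_lit 7) (nat_lit 0x7) (nat_lit 0) (nat_lit 0xf) (nat_lit 4) (nat_lit 0x7f) (nat_lit 0x1800) [] cols gens

theorem b0 : allR chk 4 0 = true := by decide +kernel

noncomputable def T : CT := ⟨row, nat_lit 9, nat_lit 9, nat_lit 0xf, nat_lit 0x70, nat_lit 7, nat_lit 0x7, nat_lit 0, nat_lit 0xf, nat_lit 4, nat_lit 0x7f, nat_lit 0x1800, nat_lit 73, nat_lit 73, nat_lit 0, nat_lit 4, [], cols, erots, gens⟩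

theorem all : ∀ c < 9, chk c = true := fun c hc =>
  allR_glue (d := 4) (n := 1) (forall_lt_succ' forall_lt_zero' b0) c (lt_of_lt_of_le hc (by norm_num))

/-- the relators used -/
def R : List (List ℕ) := [[nat_lit 0, nat_lit 3],
  [nat_lit 1, nat_lit 4],
  [nat_lit 0, nat_lit 0, nat_lit 0],
  [nat_lit 1, nat_lit 1, nat_lit 1],
  [nat_lit 1, nat_lit 0, nat_lit 4, nat_lit 3]]

theorem cert : Cert T (R.map fun r => (r, 0)) ([].map fun y => (y, 0)) 13 10 [0, 1, 3, 4] :=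
  ⟨by decide +kernel, ⟨[[(0, 0), (2, 0), (4, 1)], [(1, 0), (3, 0), (4, 0)], [(0, 1), (4, 3)], [(1, 1)]], [], by decide +kernel⟩, by decide +kernel, Or.inl ⟨rfl, all⟩⟩

theorem bound {Γ : Type*} [Group Γ] {x : ℕ → Γ} (hR : ∀ r ∈ R, ev x r = 1) {n : ℕ}
    (h : CardLe x [] n) : CardLe x [0, 1, 3, 4] (9 * n) :=
  cert.cardLe rfl hR h

end Cfsg.Agent.H3.SL29.Tc1
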